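import Cfsg.Agent.Lib.Helper33.KS.Defs2

set_option autoImplicit false

/-! # K-S 12.3 farm, piece P9a: every vertex has its central involution -/

namespace Cfsg.Agent.Lib.Helper2.KS

open Subgroup MulAction Cfsg.Agent.Lib.Helper33.KS
open Cfsg.Agent.Lib.Helper22 (conjS mem_conjS conjS_mem conjS_mul conjS_one)

variable {G : Type*} [Group G] {V : Type*} [MulAction G V] {adj : V → V → Prop}
  {Q Z : V → Subgroup G}

theorem p9a (hC : Cub adj Q Z) (h4 : P4 adj Z) (h6 : P6 adj Z) : EC adj Z := by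
  constructor
  · intro A
    obtain ⟨C₀, hAC₀⟩ := hC.exV A
    obtain ⟨w, hw, hcen⟩ := h6 C₀ A (hC.symm hAC₀)
    refine ⟨w, fun C hCA => ?_, hcen⟩
    obtain ⟨g, hg, hgC⟩ := hC.trN hAC₀ (hC.symm hCA)
    have h := (h4 C₀ A w (hC.symm hAC₀) hw).2.2.2.2 g
    have hgA : g • A = A := mem_stabilizer_iff.1 hg
    have hgw : g * w * g⁻¹ = w := by rw [hcen g hg, mul_inv_cancel_right]
    rwa [hgC, hgA, hgw] at h
  · intro A c g hc
    refine ⟨fun C hCA => ?_, fun y hy => ?_⟩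
    · have h1 : adj (g⁻¹ • C) A := by
        have := hC.adj_smul g⁻¹ hCA
        rwa [inv_smul_smul] at this
      have h2 := (h4 _ A c h1 (hc.1 _ h1)).2.2.2.2 g
      rwa [smul_inv_smul] at h2
    · have h1 : g⁻¹ * y * g ∈ St G A := by
        rw [mem_stabilizer_iff, mul_smul, mul_smul, mem_stabilizer_iff.1 hy, inv_smul_smul]
      have h2 := hc.2 _ h1
      calc y * (g * c * g⁻¹) = g * ((g⁻¹ * y * g) * c) * g⁻¹ := by group
        _ = g * (c * (g⁻¹ * y * g)) * g⁻¹ := by rw [h2]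
        _ = g * c * g⁻¹ * y := by group

end Cfsg.Agent.Lib.Helper2.KS
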