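import Cfsg.Agent.Lib.Helper33.KS.Defs2

set_option autoImplicit false

/-! # K-S 12.3 farm, piece P9b: all 2-arcs are critical -/

namespace Cfsg.Agent.Lib.Helper2.KS

open Subgroup MulAction Cfsg.Agent.Lib.Helper33.KS
open Cfsg.Agent.Lib.Helper22 (conjS mem_conjS conjS_mem conjS_mul conjS_one)

variable {G : Type*} [Group G] {V : Type*} [MulAction G V] {adj : V → V → Prop}
  {Q Z : V → Subgroup G}

theorem cmt_of_smul (hC : Cub adj Q Z) (k : G) {A C : V} (h : Cmt Z (k • A) (k • C)) :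
    Cmt Z A C := by
  intro a ha c hc
  have h1 : k * a * k⁻¹ ∈ Z (k • A) := by rw [hC.Z_smul]; exact conjS_mem ha
  have h2 : k * c * k⁻¹ ∈ Z (k • C) := by rw [hC.Z_smul]; exact conjS_mem hc
  have h3 := h _ h1 _ h2
  calc a * c = k⁻¹ * ((k * a * k⁻¹) * (k * c * k⁻¹)) * k := by group
    _ = k⁻¹ * ((k * c * k⁻¹) * (k * a * k⁻¹)) * k := by rw [h3]
    _ = c * a := by group

theorem p9b (hC : Cub adj Q Z) (hb : MinB adj Z 2) : A2 adj Z := by
  intro A B C hAB hBC hAC hcm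
  apply hb.not
  intro f l hf
  have h01 : adj (f l) (f (l + 1)) := hf l le_rfl (by simp)
  have h12 : adj (f (l + 1)) (f (l + ((2 : ℕ) : ℤ))) := by
    have := hf (l + 1) (by omega) (by simp)
    rwa [show l + 1 + 1 = l + ((2 : ℕ) : ℤ) by push_cast; ring] at this
  by_cases h02 : f l = f (l + ((2 : ℕ) : ℤ))
  · rw [← h02]
    exact fun a ha c hc => hC.Zc _ a ha c hc
  obtain ⟨g, hg1, hg0⟩ := hC.trans (hC.symm h01) (hC.symm hAB)
  have hB2 : adj B (g • f (l + ((2 : ℕ) : ℤ))) := by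
    have := hC.adj_smul g h12
    rwa [hg1] at this
  have hne : g • f (l + ((2 : ℕ) : ℤ)) ≠ A := by
    rw [← hg0]
    intro h
    exact h02 (MulAction.injective g h).symm
  obtain ⟨h, hh, hhC⟩ := hC.tr3 (hC.symm hAB) hB2 hBC hne (Ne.symm hAC)
  have hhA : h • A = A := mem_stabilizer_iff.1 hh.2
  apply cmt_of_smul hC (h * g)
  rw [mul_smul, mul_smul, hg0, hhA, hhC]
  exact hcm

end Cfsg.Agent.Lib.Helper2.KS
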