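import Cfsg.Agent.Lib.Helper33.KS.Defs2

set_option autoImplicit false

/-! # K-S 12.3 farm, piece P9c: the 4-arc rule -/

namespace Cfsg.Agent.Lib.Helper2.KS

open Subgroup MulAction Cfsg.Agent.Lib.Helper33.KS
open Cfsg.Agent.Lib.Helper22 (conjS mem_conjS conjS_mem conjS_mul conjS_one)

variable {G : Type*} [Group G] {V : Type*} [MulAction G V] {adj : V → V → Prop}
  {Q Z : V → Subgroup G}

/-- `P2` for an edge -/
theorem p2_edge (h2 : P2 adj Q Z 2) {A B : V} (hAB : adj A B) : Z B ≤ Q A ∧ Z A ≤ Q B := by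
  have h := h2 (fun i => if i ≤ 0 then A else B) 0 1 (by
    intro i h0 h1
    have : i = 0 := by omega
    subst this
    simpa using hAB) (by norm_num) (by norm_num)
  simpa using h

/-- `P3` for a walk of length two -/
theorem p3_walk (h3 : P3 adj Z 2) {A B C : V} (hAB : adj A B) (hBC : adj B C) {a x : G}
    (ha : a ∈ Z A) (hx : x ∈ Z C) (hne : a * x ≠ x * a) : IsW Z A B (a * x * a * x) := by
  have h := h3 (fun i => if i ≤ 0 then A else if i = 1 then B else C) 0 (by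
    intro i h0 h1
    have h1' : i < 2 := by simpa using h1
    have : i = 0 ∨ i = 1 := by omega
    rcases this with rfl | rfl
    · simpa using hAB
    · simpa using hBC) a (by simpa using ha) x (by simpa using hx) hne
  simpa using h.1

theorem p9c (hC : Cub adj Q Z) (h2 : P2 adj Q Z 2) (h3 : P3 adj Z 2) (h4 : P4 adj Z)
    (h7 : P7 adj Z) (hA2 : A2 adj Z) : A4 adj Z := by
  intro v0 v1 v2 v3 v4 c0 c2 c4 h01 h12 h23 h34 n02 n13 n24 hc0 hc2 hc4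
  have w0 : IsW Z v1 v0 c0 := hc0.1 v1 (hC.symm h01)
  have w4 : IsW Z v3 v4 c4 := hc4.1 v3 h34
  have w2 : IsW Z v1 v2 c2 := hc2.1 v1 h12
  have c0v1 : c0 ∈ Z v1 := (h4 v1 v0 c0 (hC.symm h01) w0).1
  have c4v3 : c4 ∈ Z v3 := (h4 v3 v4 c4 h34 w4).1
  have hne : c0 * c4 ≠ c4 * c0 := by
    intro hcomm
    have hq : c4 ∈ Q v2 := (p2_edge h2 h23).1 c4v3
    have hs1 : c4 ∈ St G v1 := hC.QB (hC.symm h12) hq
    have hs2 : c4 ∈ St G v2 := hC.QA v2 hq
    have hs0 : c4 ∈ St G v0 := h7 v1 v0 c0 c4 (hC.symm h01) w0 hs1 hcomm.symm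
    have hq1 : c4 ∈ Q v1 := hC.TT (hC.symm h01) h12 n02 ⟨⟨hs1, hs0⟩, hs2⟩
    apply hA2 v1 v2 v3 h12 h23 n13
    intro a ha
    have haq : a ∈ Q v2 := (p2_edge h2 h12).2 ha
    have ha3 : a ∈ St G v3 := hC.QB h23 haq
    have ha2 : a ∈ St G v2 := hC.QA v2 haq
    have hac : a * c4 = c4 * a := (hC.QZ v1 c4 hq1 a ha).symm
    have ha4 : a ∈ St G v4 := h7 v3 v4 c4 a h34 w4 ha3 hac
    have haq3 : a ∈ Q v3 := hC.TT (hC.symm h23) h34 n24 ⟨⟨ha3, ha2⟩, ha4⟩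
    exact fun c hc => hC.QZ v3 a haq3 c hc
  have hw := p3_walk h3 h12 h23 c0v1 c4v3 hne
  exact (h4 v1 v2 c2 h12 w2).2.2.2.1 _ hw

end Cfsg.Agent.Lib.Helper2.KS
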