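import Cfsg.Agent.Lib.Helper2.KS.P9c

set_option autoImplicit false

/-! # K-S 12.3 farm, piece P9d: the case `b = 2` is impossible -/

namespace Cfsg.Agent.Lib.Helper2.KS

open Subgroup MulAction Cfsg.Agent.Lib.Helper33.KS
open Cfsg.Agent.Lib.Helper22 (conjS mem_conjS conjS_mem conjS_mul conjS_one)

variable {G : Type*} [Group G] {V : Type*} [MulAction G V] {adj : V → V → Prop}
  {Q Z : V → Subgroup G}

theorem isC_facts (hC : Cub adj Q Z) (h4 : P4 adj Z) {A C : V} {c : G} (hCA : adj C A)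
    (hc : IsC adj Z A c) : c ≠ 1 ∧ c * c = 1 ∧ c ∈ Z A ∧ c ∈ Z C := by
  have hw := hc.1 C hCA
  have h := h4 C A c hCA hw
  exact ⟨hw.1, hC.Ze A c h.2.1, h.2.1, h.1⟩

theorem half (hC : Cub adj Q Z) (h2 : P2 adj Q Z 2) (h4 : P4 adj Z) (hE : EC adj Z)
    (hA4 : A4 adj Z) {g0 g1 g2 g3 g4 g5 : V} {c0 c1 c2 c3 c5 : G}
    (h01 : adj g0 g1) (h12 : adj g1 g2) (h23 : adj g2 g3) (h34 : adj g3 g4) (h45 : adj g4 g5)
    (n02 : g0 ≠ g2) (n13 : g1 ≠ g3) (n24 : g2 ≠ g4) (n35 : g3 ≠ g5)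
    (k0 : IsC adj Z g0 c0) (k1 : IsC adj Z g1 c1) (k2 : IsC adj Z g2 c2) (k3 : IsC adj Z g3 c3)
    (k5 : IsC adj Z g5 c5) :
    c0 * (c5 * c0 * c5⁻¹) * c0 * (c5 * c0 * c5⁻¹) = c2 := by
  have f5 := isC_facts hC h4 h45 k5
  have f1 := isC_facts hC h4 (hC.symm h12) k1
  have f3 := isC_facts hC h4 h23 k3
  have hq : c5 ∈ Q g3 := (p2_edge h2 h34).1 f5.2.2.2
  have s3 : c5 ∈ St G g3 := hC.QA g3 hq
  have s2 : c5 ∈ St G g2 := hC.QB (hC.symm h23) hq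
  have s1 : c5 ∉ St G g1 := by
    intro s1
    have hq2 : c5 ∈ Q g2 := hC.TT (hC.symm h12) h23 n13 ⟨⟨s2, s1⟩, s3⟩
    have hcomm : c5 * c1 = c1 * c5 := hC.QZ g2 c5 hq2 c1 f1.2.2.2
    have h := hA4 g1 g2 g3 g4 g5 c1 c3 c5 h12 h23 h34 h45 n13 n24 n35 k1 k3 k5
    apply f3.1
    rw [← h]
    calc c1 * c5 * c1 * c5 = c1 * (c5 * c1) * c5 := by simp only [mul_assoc]
      _ = (c1 * c1) * (c5 * c5) := by rw [hcomm]; simp only [mul_assoc]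
      _ = 1 := by rw [f1.2.1, f5.2.1, one_mul]
  have e2 : c5 • g2 = g2 := mem_stabilizer_iff.1 s2
  have a1 : adj g2 (c5 • g1) := by
    have := hC.adj_smul c5 (hC.symm h12)
    rwa [e2] at this
  have a2 : adj (c5 • g1) (c5 • g0) := hC.adj_smul c5 (hC.symm h01)
  have m1 : g1 ≠ c5 • g1 := fun h => s1 (mem_stabilizer_iff.2 h.symm)
  have m2 : g2 ≠ c5 • g0 := by
    intro h
    rw [← e2] at h
    exact n02 (MulAction.injective c5 h).symm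
  exact hA4 g0 g1 g2 (c5 • g1) (c5 • g0) c0 c2 (c5 * c0 * c5⁻¹) h01 h12 a1 a2 n02 m1 m2 k0 k2
    (hE.2 g0 c0 c5 k0)

theorem p9d (hC : Cub adj Q Z) (A₀ : V) (h2 : P2 adj Q Z 2) (h4 : P4 adj Z) (hE : EC adj Z)
    (hA4 : A4 adj Z) : False := by
  obtain ⟨g1, h01⟩ := hC.exV A₀
  obtain ⟨g2, h12, n20⟩ := hC.ex (hC.symm h01)
  obtain ⟨g3, h23, n31⟩ := hC.ex (hC.symm h12)
  obtain ⟨g4, h34, n42⟩ := hC.ex (hC.symm h23)
  obtain ⟨g5, h45, n53⟩ := hC.ex (hC.symm h34)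
  obtain ⟨c0, k0⟩ := hE.1 A₀
  obtain ⟨c1, k1⟩ := hE.1 g1
  obtain ⟨c2, k2⟩ := hE.1 g2
  obtain ⟨c3, k3⟩ := hE.1 g3
  obtain ⟨c4, k4⟩ := hE.1 g4
  obtain ⟨c5, k5⟩ := hE.1 g5
  have e2 := half hC h2 h4 hE hA4 h01 h12 h23 h34 h45 n20.symm n31.symm n42.symm n53.symm
    k0 k1 k2 k3 k5
  have e3 := half hC h2 h4 hE hA4 (hC.symm h45) (hC.symm h34) (hC.symm h23) (hC.symm h12)
    (hC.symm h01) n53 n42 n31 n20 k5 k4 k3 k2 k0
  have f0 := isC_facts hC h4 (hC.symm h01) k0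
  have f5 := isC_facts hC h4 h45 k5
  have f2 := isC_facts hC h4 h12 k2
  have i0 : c0⁻¹ = c0 := inv_eq_of_mul_eq_one_left f0.2.1
  have i5 : c5⁻¹ = c5 := inv_eq_of_mul_eq_one_left f5.2.1
  rw [i5] at e2
  rw [i0] at e3
  have h32 : c3 = c2 := by
    have hcomm : c0 * c2 = c2 * c0 := hC.Zc g1 c0 f0.2.2.2 c2 f2.2.2.2
    calc c3 = c5 * (c0 * c5 * c0) * c5 * (c0 * c5 * c0) := e3.symm
      _ = (c0 * c0) * c5 * (c0 * c5 * c0) * c5 * (c0 * c5 * c0) := by rw [f0.2.1, one_mul]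
      _ = c0 * (c0 * (c5 * c0 * c5) * c0 * (c5 * c0 * c5)) * c0 := by simp only [mul_assoc]
      _ = c0 * c2 * c0 := by rw [e2]
      _ = c2 := by rw [hcomm, mul_assoc, f0.2.1, mul_one]
  have hcen : ∀ y : G, y * c2 = c2 * y → y ∈ normalizer ((zpowers c2 : Subgroup G) : Set G) := by
    intro y hy
    apply Subgroup.centralizer_le_normalizer
    rw [Subgroup.mem_centralizer_iff]
    rintro _ ⟨n, rfl⟩
    have : Commute c2 y := hy.symm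
    exact (this.zpow_left n).eq
  have hp : IsPGroup 2 (zpowers c2) := by
    rintro ⟨_, ⟨n, rfl⟩⟩
    refine ⟨1, ?_⟩
    apply Subtype.ext
    simp only [pow_one, Subgroup.coe_pow, Subgroup.coe_one]
    rw [← zpow_natCast, ← zpow_mul, mul_comm, zpow_mul]
    have : c2 ^ ((2 : ℕ) : ℤ) = 1 := by
      rw [zpow_natCast, pow_two, f2.2.1]
    rw [this, one_zpow]
  have hbot := hC.core h23 (zpowers c2) hp (fun y hy => hcen y (k2.2 y hy))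
    (fun y hy => hcen y (by have := k3.2 y hy; rwa [h32] at this))
  apply f2.1
  rwa [Subgroup.zpowers_eq_bot] at hbot

end Cfsg.Agent.Lib.Helper2.KS
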